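-- Team project CS3 (S4284, helper81), part [END] = PkgEnd: interface file of the sub-coordinator
-- (helper79).  Paper proof: helper81's note "CS3 END PROOF".
import Mathlib
import Cfsg.Agent.Lib.Helper81.CS3.Defs

set_option autoImplicit false

namespace Cfsg.Agent.Lib.Helper79.CS3

open Cfsg.Agent.Lib.Helper81.CS3

universe u

/-- The END setting before Ito: `Hyp`, `Q` a normal abelian subgroup with `|Q|` prime to `m` and
`|G : Q|` prime to `n`, and `L` a complement of `Q`. -/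
structure S0 (G : Type u) [Group G] (m n : ℕ) (Q L : Subgroup G) : Prop where
  hyp : Hyp G m n
  qn : Q.Normal
  qc : ∀ a ∈ Q, ∀ b ∈ Q, a * b = b * a
  qm : (Nat.card Q).Coprime m
  qi : Q.index.Coprime n
  inf : Q ⊓ L = ⊥
  sup : Q ⊔ L = ⊤

/-- The END setting after Ito: the complement `P` is a `p`-group and `m` is a power of `p`. -/
structure S1 (G : Type u) [Group G] (m n : ℕ) (Q P : Subgroup G) (p : ℕ) : Prop where
  s0 : S0 G m n Q P
  pp : p.Prime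
  pm : ∃ j : ℕ, m = p ^ j
  pg : IsPGroup p P

/-- CASE I: some element of `C_P(Q)` is not central in `G`. -/
def CaseI {G : Type u} [Group G] (Q P : Subgroup G) : Prop :=
  ∃ a ∈ P, a ∈ Subgroup.centralizer (Q : Set G) ∧ a ∉ Subgroup.center G

/-- CASE II: `C_P(Q)` is central in `G`. -/
def CaseII {G : Type u} [Group G] (Q P : Subgroup G) : Prop :=
  ∀ a ∈ P, a ∈ Subgroup.centralizer (Q : Set G) → a ∈ Subgroup.center G

/-! ### pure group theory -/

/-- [B2] commuting elements of coprime orders: `C(xy) = C(x) ⊓ C(y)`. -/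
def PkgB2 : Prop :=
  ∀ {G : Type u} [Group G] [Finite G] (x y : G), x * y = y * x →
    (orderOf x).Coprime (orderOf y) →
    Subgroup.centralizer ({x * y} : Set G) =
      Subgroup.centralizer ({x} : Set G) ⊓ Subgroup.centralizer ({y} : Set G)

/-- [CENT] `L` normalizes `Q`, `Q ⊓ L = ⊥`, `w ∈ L`: `C_{QL}(w) = C_Q(w) C_L(w)`, as a count. -/
def PkgCent : Prop :=
  ∀ {G : Type u} [Group G] [Finite G] (Q L : Subgroup G),
    (∀ l ∈ L, ∀ q ∈ Q, l * q * l⁻¹ ∈ Q) → Q ⊓ L = ⊥ →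
    ∀ w ∈ L,
      Nat.card ↥(Subgroup.centralizer ({w} : Set G) ⊓ (Q ⊔ L)) =
        Nat.card ↥(Subgroup.centralizer ({w} : Set G) ⊓ Q) *
          Nat.card ↥(Subgroup.centralizer ({w} : Set G) ⊓ L)

/-- [DF] a normal abelian subgroup `Q` with a complement `P` of coprime order, in a group without
abelian direct factors, meets the centre trivially. -/
def PkgDF : Prop :=
  ∀ {G : Type u} [Group G] [Finite G] (Q P : Subgroup G),
    (∀ A B : Subgroup G, A.Normal → B.Normal → A ⊓ B = ⊥ → A ⊔ B = ⊤ → IsMulCommutative A →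
      A = ⊥) →
    Q.Normal → (∀ a ∈ Q, ∀ b ∈ Q, a * b = b * a) → (Nat.card Q).Coprime (Nat.card P) →
    Q ⊓ P = ⊥ → Q ⊔ P = ⊤ → Q ⊓ Subgroup.center G = ⊥

/-- [ORB] `P` acts by conjugation on `Q ∖ {1}` with all point stabilizers equal to `A ⊓ P`:
`|P : A ⊓ P|` divides `|Q| - 1`. -/
def PkgOrb : Prop :=
  ∀ {G : Type u} [Group G] [Finite G] (Q P A : Subgroup G), Q.Normal →
    (∀ y ∈ Q, y ≠ 1 → ∀ g ∈ P, (g * y = y * g ↔ g ∈ A)) →
    A.relIndex P ∣ Nat.card Q - 1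

/-- [PCEN] `P` a `p`-subgroup, `N ≤ P` normalized by `P` and not central in `P`: some `a ∈ N` is
not central in `P`, but central modulo `Z(P)` with `a ^ p ∈ Z(P)`. -/
def PkgPCen : Prop :=
  ∀ {G : Type u} [Group G] [Finite G] (p : ℕ) (P N : Subgroup G), p.Prime → IsPGroup p P →
    N ≤ P → (∀ g ∈ P, ∀ x ∈ N, g * x * g⁻¹ ∈ N) → (∃ x ∈ N, ∃ g ∈ P, x * g ≠ g * x) →
    ∃ a ∈ N, (∃ g ∈ P, a * g ≠ g * a) ∧
      (∀ g ∈ P, ∀ h ∈ P, (a * g * a⁻¹ * g⁻¹) * h = h * (a * g * a⁻¹ * g⁻¹)) ∧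
      (∀ h ∈ P, a ^ p * h = h * a ^ p)

/-- [FPF] (= [B6]) two commuting automorphisms of order dividing `p` of an abelian `p'`-group `Q`
(conjugation by `g`, `h`), all of whose non-trivial products `g ^ i * h ^ j` have their fixed
points in a proper subgroup `V0`: impossible. -/
def PkgFPF : Prop :=
  ∀ {G : Type u} [Group G] [Finite G] (Q V0 : Subgroup G) (p : ℕ) (g h : G), p.Prime →
    (∀ a ∈ Q, ∀ b ∈ Q, a * b = b * a) → ¬ p ∣ Nat.card Q → V0 ≤ Q → V0 ≠ Q →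
    (∀ y ∈ Q, g * y * g⁻¹ ∈ Q) → (∀ y ∈ Q, h * y * h⁻¹ ∈ Q) →
    (∀ y ∈ Q, g ^ p * y = y * g ^ p) → (∀ y ∈ Q, h ^ p * y = y * h ^ p) →
    (∀ y ∈ Q, (g * h) * y * (g * h)⁻¹ = (h * g) * y * (h * g)⁻¹) →
    (∀ i j : ℕ, ¬ (p ∣ i ∧ p ∣ j) → ∀ y ∈ Q, (g ^ i * h ^ j) * y = y * (g ^ i * h ^ j) →
      y ∈ V0) →
    False

/-- [SYLC] a `p`-subgroup `P` of index prime to `p` is a Sylow `p`-subgroup; all Sylow
`p`-subgroups are conjugate, so their commutator subgroups have the same order. -/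
def PkgSylC : Prop :=
  ∀ {G : Type u} [Group G] [Finite G] (p : ℕ) (P : Subgroup G), p.Prime → IsPGroup p P →
    P.index.Coprime p →
    ∀ P' : Sylow p G, Nat.card ↥(commutator ↥(P' : Subgroup G)) = Nat.card ↥(commutator ↥P)

/-! ### basics from `Hyp` -/

/-- [B0] every prime divisor of `|G|` divides `m * n`. -/
def PkgB0 : Prop :=
  ∀ {G : Type u} [Group G] [Finite G] (m n : ℕ), Hyp G m n →
    ∀ r : ℕ, r.Prime → r ∣ Nat.card G → r ∣ m * n

/-- [B3] `i(w) = m n`, `y ∈ C(w)` of order prime to the order of `w`: `C(w) ≤ C(y)`. -/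
def PkgB3 : Prop :=
  ∀ {G : Type u} [Group G] [Finite G] (m n : ℕ), Hyp G m n → ∀ w y : G,
    (Subgroup.centralizer ({w} : Set G)).index = m * n → w * y = y * w →
    (orderOf w).Coprime (orderOf y) →
    Subgroup.centralizer ({w} : Set G) ≤ Subgroup.centralizer ({y} : Set G)

/-- [B4] `i(a) = m`, `y ∈ C(a)` of order prime to the order of `a`:
`|C(a) : C(a) ⊓ C(y)|` is `1` or `n`. -/
def PkgB4 : Prop :=
  ∀ {G : Type u} [Group G] [Finite G] (m n : ℕ), Hyp G m n → ∀ a y : G,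
    (Subgroup.centralizer ({a} : Set G)).index = m → a * y = y * a →
    (orderOf a).Coprime (orderOf y) →
    (Subgroup.centralizer ({y} : Set G)).relIndex (Subgroup.centralizer ({a} : Set G)) = 1 ∨
    (Subgroup.centralizer ({y} : Set G)).relIndex (Subgroup.centralizer ({a} : Set G)) = n

/-! ### the steps E0 - E7 -/

/-- [E0] `|Q|` is prime to `|G : Q|`, and `Q ≠ ⊥`. -/
def PkgE0 : Prop :=
  ∀ {G : Type u} [Group G] [Finite G] (m n : ℕ), Hyp G m n → ∀ Q : Subgroup G, Q.Normal →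
    (Nat.card Q).Coprime m → Q.index.Coprime n → (Nat.card Q).Coprime Q.index ∧ Q ≠ ⊥

/-- [E1] `x ∈ C_G(Q) ↔ i(x) ∈ {1, m}`. -/
def PkgE1 : Prop :=
  ∀ {G : Type u} [Group G] [Finite G] (m n : ℕ) (Q L : Subgroup G), S0 G m n Q L → ∀ x : G,
    x ∈ Subgroup.centralizer (Q : Set G) ↔
      ((Subgroup.centralizer ({x} : Set G)).index = 1 ∨
        (Subgroup.centralizer ({x} : Set G)).index = m)

/-- [E4] `L` does not centralize `Q`; `Q` is not central. -/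
def PkgE4 : Prop :=
  ∀ {G : Type u} [Group G] [Finite G] (m n : ℕ) (Q L : Subgroup G), S0 G m n Q L →
    ¬ (L ≤ Subgroup.centralizer (Q : Set G)) ∧ ∃ y ∈ Q, y ∉ Subgroup.center G

/-- [E5A] class sizes of the elements of `L`: `i(w) = |Q : C_Q(w)| |L : C_L(w)|`, and the two
factors are `(1, i(w))` if `w` centralizes `Q` and `(n, m)` otherwise. -/
def PkgE5a : Prop :=
  ∀ {G : Type u} [Group G] [Finite G] (m n : ℕ) (Q L : Subgroup G), S0 G m n Q L → ∀ w ∈ L,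
    (w ∈ Subgroup.centralizer (Q : Set G) →
      (Subgroup.centralizer ({w} : Set G)).relIndex L =
        (Subgroup.centralizer ({w} : Set G)).index) ∧
    (w ∉ Subgroup.centralizer (Q : Set G) →
      (Subgroup.centralizer ({w} : Set G)).relIndex L = m ∧
      (Subgroup.centralizer ({w} : Set G)).relIndex Q = n ∧
      (Subgroup.centralizer ({w} : Set G)).index = m * n)

/-- [E5B] Ito: `m` is a power of a prime `p` and `L` is a `p`-group. -/
def PkgE5b : Prop :=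
  ∀ {G : Type u} [Group G] [Finite G] (m n : ℕ) (Q L : Subgroup G), S0 G m n Q L →
    ∃ p : ℕ, p.Prime ∧ (∃ j : ℕ, m = p ^ j) ∧ IsPGroup p L

/-- [E6] `Z(P) ≤ Z(G)`. -/
def PkgE6 : Prop :=
  ∀ {G : Type u} [Group G] [Finite G] (m n : ℕ) (Q P : Subgroup G) (p : ℕ), S1 G m n Q P p →
    ∀ x ∈ P, (∀ y ∈ P, x * y = y * x) → x ∈ Subgroup.center G

/-- [E7] for `y ∈ Q` not central: `|P : C_P(y)| = m` and `C_P(y)` is abelian. -/
def PkgE7 : Prop :=
  ∀ {G : Type u} [Group G] [Finite G] (m n : ℕ) (Q P : Subgroup G) (p : ℕ), S1 G m n Q P p →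
    ∀ y ∈ Q, y ∉ Subgroup.center G →
      (Subgroup.centralizer ({y} : Set G)).relIndex P = m ∧
      ∀ u ∈ P, u * y = y * u → ∀ v ∈ P, v * y = y * v → u * v = v * u

/-! ### CASE I -/

/-- [I1] `A1 = C_P(Q)` is abelian of index `m` in `P`, and `C_P(y) ≤ A1` for `y ∈ Q ∖ Z(G)`,
`C_P(a) ≤ A1` for `a ∈ A1 ∖ Z(G)`. -/
def PkgI1 : Prop :=
  ∀ {G : Type u} [Group G] [Finite G] (m n : ℕ) (Q P : Subgroup G) (p : ℕ), S1 G m n Q P p →
    CaseI Q P →
    (Subgroup.centralizer (Q : Set G)).relIndex P = m ∧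
    (∀ u ∈ P, u ∈ Subgroup.centralizer (Q : Set G) → ∀ v ∈ P,
      v ∈ Subgroup.centralizer (Q : Set G) → u * v = v * u) ∧
    (∀ y ∈ Q, y ∉ Subgroup.center G → ∀ g ∈ P, g * y = y * g →
      g ∈ Subgroup.centralizer (Q : Set G)) ∧
    (∀ a ∈ P, a ∈ Subgroup.centralizer (Q : Set G) → a ∉ Subgroup.center G → ∀ g ∈ P,
      g * a = a * g → g ∈ Subgroup.centralizer (Q : Set G))

/-- [I3] `|Q| = n`, `m ∣ n - 1`, and the elements of `P ∖ C_P(Q)` fix no `y ≠ 1` of `Q`. -/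
def PkgI3 : Prop :=
  ∀ {G : Type u} [Group G] [Finite G] (m n : ℕ) (Q P : Subgroup G) (p : ℕ), S1 G m n Q P p →
    CaseI Q P →
    Nat.card Q = n ∧ m ∣ n - 1 ∧
    (∀ g ∈ P, g ∉ Subgroup.centralizer (Q : Set G) → ∀ y ∈ Q, g * y = y * g → y = 1)

/-- [I4A] `P / C_P(Q)` has exponent `p`. -/
def PkgI4a : Prop :=
  ∀ {G : Type u} [Group G] [Finite G] (m n : ℕ) (Q P : Subgroup G) (p : ℕ), S1 G m n Q P p →
    CaseI Q P → ∀ w ∈ P, w ^ p ∈ Subgroup.centralizer (Q : Set G)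

/-- [I4B] `m = p`. -/
def PkgI4b : Prop :=
  ∀ {G : Type u} [Group G] [Finite G] (m n : ℕ) (Q P : Subgroup G) (p : ℕ), S1 G m n Q P p →
    CaseI Q P → m = p

/-- [I5] the commutator subgroup of every Sylow `p`-subgroup has order `p`. -/
def PkgI5 : Prop :=
  ∀ {G : Type u} [Group G] [Finite G] (m n : ℕ) (Q P : Subgroup G) (p : ℕ), S1 G m n Q P p →
    CaseI Q P → m = p →
    ∀ P' : Sylow p G, Nat.card ↥(commutator ↥(P' : Subgroup G)) = p

/-- [I6] `C_G(Q)` is abelian of index `m`, and `|G : Q|` is a power of `m`. -/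
def PkgI6 : Prop :=
  ∀ {G : Type u} [Group G] [Finite G] (m n : ℕ) (Q P : Subgroup G) (p : ℕ), S1 G m n Q P p →
    CaseI Q P → m = p →
    ((Subgroup.centralizer (Q : Set G)).index = m ∧
      IsMulCommutative ↥(Subgroup.centralizer (Q : Set G))) ∧
    ∃ a : ℕ, Q.index = m ^ a

/-! ### CASE II -/

/-- [II12] every `w ∈ P ∖ Z(G)` has `|P : C_P(w)| = m`, `C_P(w)` abelian, and
`C_P(w) = C_P(y)` for some `y ∈ Q ∖ Z(G)`. -/
def PkgII12 : Prop :=
  ∀ {G : Type u} [Group G] [Finite G] (m n : ℕ) (Q P : Subgroup G) (p : ℕ), S1 G m n Q P p →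
    CaseII Q P → ∀ w ∈ P, w ∉ Subgroup.center G →
      (Subgroup.centralizer ({w} : Set G)).relIndex P = m ∧
      (∀ u ∈ P, u * w = w * u → ∀ v ∈ P, v * w = w * v → u * v = v * u) ∧
      ∃ y ∈ Q, y ∉ Subgroup.center G ∧ ∀ g ∈ P, (g * w = w * g ↔ g * y = y * g)

/-- [II3] `m = p`. -/
def PkgII3 : Prop :=
  ∀ {G : Type u} [Group G] [Finite G] (m n : ℕ) (Q P : Subgroup G) (p : ℕ), S1 G m n Q P p →
    CaseII Q P → m = p

/-- [II4] `P / Z(P)` is elementary abelian of order `p ^ 2` (`Z(P) = P ⊓ Z(G)`). -/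
def PkgII4 : Prop :=
  ∀ {G : Type u} [Group G] [Finite G] (m n : ℕ) (Q P : Subgroup G) (p : ℕ), S1 G m n Q P p →
    CaseII Q P → m = p →
    (∀ g ∈ P, ∀ h ∈ P, g * h * g⁻¹ * h⁻¹ ∈ Subgroup.center G) ∧
    (∀ g ∈ P, g ^ p ∈ Subgroup.center G) ∧
    Nat.card P = p ^ 2 * Nat.card ↥(P ⊓ Subgroup.center G)

/-- [II5] CASE II is contradictory. -/
def PkgII5 : Prop :=
  ∀ {G : Type u} [Group G] [Finite G] (m n : ℕ) (Q P : Subgroup G) (p : ℕ), S1 G m n Q P p →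
    CaseII Q P → m = p → False

end Cfsg.Agent.Lib.Helper79.CS3
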