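-- Team project CS3 (S4284, helper81), part [END] = PkgEnd: the assembly (helper79).
import Mathlib
import Cfsg.Agent.Lib.Helper79.CS3.EndDefs

set_option autoImplicit false

namespace Cfsg.Agent.Lib.Helper79.CS3

open Cfsg.Agent.Lib.Helper81.CS3

universe u

/-- [END] from the packages. -/
theorem pkgEnd_of (hE0 : PkgE0.{u}) (hE1 : PkgE1.{u}) (hE5b : PkgE5b.{u}) (hI3 : PkgI3.{u})
    (hI4b : PkgI4b.{u}) (hI5 : PkgI5.{u}) (hI6 : PkgI6.{u}) (hII3 : PkgII3.{u})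
    (hII5 : PkgII5.{u}) : PkgEnd.{u} := by
  intro G _ _ m n hyp hQ
  obtain ⟨Q, hQn, hQc, hQm, hQi⟩ := hQ
  obtain ⟨hcop, -⟩ := hE0 m n hyp Q hQn hQm hQi
  obtain ⟨L, hL⟩ := Subgroup.exists_right_complement'_of_coprime hcop
  have hinf : Q ⊓ L = ⊥ := hL.isCompl.inf_eq_bot
  have hsup : Q ⊔ L = ⊤ := hL.isCompl.sup_eq_top
  have hqc : ∀ a ∈ Q, ∀ b ∈ Q, a * b = b * a := by
    intro a ha b hb
    have := mul_comm' (⟨a, ha⟩ : Q) ⟨b, hb⟩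
    exact congrArg Subtype.val this
  have s0 : S0 G m n Q L := ⟨hyp, hQn, hqc, hQm, hQi, hinf, hsup⟩
  obtain ⟨p, hp, hpm, hpg⟩ := hE5b m n Q L s0
  have s1 : S1 G m n Q L p := ⟨s0, hp, hpm, hpg⟩
  by_cases hc : CaseI Q L
  · have hmp := hI4b m n Q L p s1 hc
    obtain ⟨-, hdvd, -⟩ := hI3 m n Q L p s1 hc
    obtain ⟨⟨hMi, hMc⟩, a, ha⟩ := hI6 m n Q L p s1 hc hmp
    have h5 := hI5 m n Q L p s1 hc hmp
    subst hmp
    refine ⟨hp, hdvd, ⟨Subgroup.centralizer (Q : Set G), inferInstance, ?_, hMi, hMc⟩,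
      ⟨Q, hQn, hQm, a, ha⟩, h5⟩
    ext x
    exact hE1 m n Q L s0 x
  · exfalso
    have hc2 : CaseII Q L := by
      intro a haP haC
      by_contra hz
      exact hc ⟨a, haP, haC, hz⟩
    exact hII5 m n Q L p s1 hc2 (hII3 m n Q L p s1 hc2)

end Cfsg.Agent.Lib.Helper79.CS3
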