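-- Team project CS3 (S4284, helper81), part [END]: package [I5] (helper79).
import Mathlib
import Cfsg.Agent.Lib.Helper79.CS3.EndDefs

set_option autoImplicit false

namespace Cfsg.Agent.Lib.Helper79.CS3

open Cfsg.Agent.Lib.Helper81.CS3
open scoped commutatorElement

universe u

/-- A group with an abelian normal subgroup `A` of prime index `p` and an element `w ∉ A` whose
class has size `p` has a commutator subgroup of order `p`. -/
theorem card_commutator_of_index_prime {H : Type u} [Group H] [Finite H] (p : ℕ) (hp : p.Prime)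
    (A : Subgroup H) [hAn : A.Normal] (hA : ∀ a ∈ A, ∀ b ∈ A, a * b = b * a) (hAi : A.index = p)
    (w : H) (hw : w ∉ A) (hcw : (Subgroup.centralizer ({w} : Set H)).index = p) :
    Nat.card ↥(commutator H) = p := by
  classical
  -- a subgroup containing `A` and `w` is everything
  have hgen : ∀ K : Subgroup H, A ≤ K → w ∈ K → K = ⊤ := by
    intro K hAK hwK
    have hdvd : K.index ∣ p := hAi ▸ Subgroup.index_dvd_of_le hAK
    rcases (Nat.dvd_prime hp).1 hdvd with h1 | h1
    · exact Subgroup.index_eq_one.1 h1
    · exfalso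
      apply hw
      have hcard : Nat.card K ≤ Nat.card A := by
        have e1 := Subgroup.card_mul_index K
        have e2 := Subgroup.card_mul_index A
        rw [h1] at e1
        rw [hAi] at e2
        have : Nat.card K * p = Nat.card A * p := by rw [e1, e2]
        exact le_of_eq (Nat.eq_of_mul_eq_mul_right hp.pos this)
      have := Subgroup.eq_of_le_of_card_ge hAK hcard
      rw [this]
      exact hwK
  have hconj : ∀ a ∈ A, w⁻¹ * a * w ∈ A := by
    intro a ha
    have := hAn.conj_mem a ha w⁻¹
    simpa using this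
  -- the homomorphism `a ↦ a⁻¹ w⁻¹ a w`
  let φ : ↥A →* H :=
    { toFun := fun a => (a : H)⁻¹ * w⁻¹ * a * w
      map_one' := by simp
      map_mul' := by
        intro a b
        have h1 : ((a : H)⁻¹ * (w⁻¹ * a * w)) * (b : H)⁻¹ = (b : H)⁻¹ * ((a : H)⁻¹ * (w⁻¹ * a * w)) :=
          hA _ (A.mul_mem (A.inv_mem a.2) (hconj a a.2)) _ (A.inv_mem b.2)
        simp only [Subgroup.coe_mul, mul_inv_rev]
        calc (b : H)⁻¹ * (a : H)⁻¹ * w⁻¹ * ((a : H) * b) * w
            = ((b : H)⁻¹ * ((a : H)⁻¹ * (w⁻¹ * a * w))) * (w⁻¹ * b * w) := by group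
          _ = (((a : H)⁻¹ * (w⁻¹ * a * w)) * (b : H)⁻¹) * (w⁻¹ * b * w) := by rw [h1]
          _ = (a : H)⁻¹ * w⁻¹ * a * w * ((b : H)⁻¹ * w⁻¹ * b * w) := by group }
  have hφ : ∀ a : ↥A, φ a = (a : H)⁻¹ * w⁻¹ * a * w := fun a => rfl
  have hDA : φ.range ≤ A := by
    rintro x ⟨a, rfl⟩
    rw [hφ]
    have := A.mul_mem (A.inv_mem a.2) (hconj a a.2)
    simpa [mul_assoc] using this
  -- `D = range φ` is normal
  have hDn : φ.range.Normal := by
    rw [← Subgroup.normalizer_eq_top_iff]
    apply hgen
    · intro a ha
      rw [Subgroup.mem_normalizer_iff]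
      intro d
      by_cases hd : d ∈ φ.range
      · have : a * d * a⁻¹ = d := by
          rw [hA a ha d (hDA hd)]; group
        rw [this]
      · have hd' : a * d * a⁻¹ ∉ φ.range := by
          intro h
          apply hd
          have h2 : a⁻¹ * (a * d * a⁻¹) * a = a * d * a⁻¹ := by
            have := hA a⁻¹ (A.inv_mem ha) (a * d * a⁻¹) (hDA h)
            rw [this]; group
          have h3 : a⁻¹ * (a * d * a⁻¹) * a = d := by group
          rw [← h3, h2]; exact h
        simp [hd, hd']
    · rw [Subgroup.mem_normalizer_iff]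
      intro d
      constructor
      · rintro ⟨a, rfl⟩
        have hm : w * a * w⁻¹ ∈ A := hAn.conj_mem a a.2 w
        refine ⟨⟨w * a * w⁻¹, hm⟩, ?_⟩
        rw [hφ, hφ]
        simp only []
        group
      · rintro ⟨a, ha⟩
        refine ⟨⟨w⁻¹ * a * w, hconj a a.2⟩, ?_⟩
        rw [hφ]
        rw [hφ] at ha
        simp only []
        have : d = w⁻¹ * (w * d * w⁻¹) * w := by group
        rw [this, ← ha]
        group
  -- the quotient by `D` is commutative
  have hcomm_le : commutator H ≤ φ.range := by
    let π : H →* H ⧸ φ.range := QuotientGroup.mk' φ.range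
    have hπ : ∀ x : H, π x = 1 ↔ x ∈ φ.range := fun x => QuotientGroup.eq_one_iff x
    have hcw' : ∀ a ∈ A, π a * π w = π w * π a := by
      intro a ha
      have h1 : π ((a : H)⁻¹ * w⁻¹ * a * w) = 1 := (hπ _).2 ⟨⟨a, ha⟩, rfl⟩
      simp only [map_mul, map_inv] at h1
      have h2 : π a * π w = π w * π a * ((π a)⁻¹ * (π w)⁻¹ * π a * π w) := by group
      rw [h1, mul_one] at h2
      exact h2
    have hsurj : Function.Surjective π := QuotientGroup.mk'_surjective _
    have hwc : ∀ x : H, π x * π w = π w * π x := by
      have hK : (Subgroup.centralizer ({π w} : Set (H ⧸ φ.range))).comap π = ⊤ := by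
        apply hgen
        · intro a ha
          rw [Subgroup.mem_comap, Subgroup.mem_centralizer_singleton_iff]
          exact hcw' a ha
        · rw [Subgroup.mem_comap, Subgroup.mem_centralizer_singleton_iff]
      intro x
      have hx : x ∈ (Subgroup.centralizer ({π w} : Set (H ⧸ φ.range))).comap π := by
        rw [hK]; trivial
      rw [Subgroup.mem_comap, Subgroup.mem_centralizer_singleton_iff] at hx
      exact hx
    have hac : ∀ a ∈ A, ∀ x : H, π x * π a = π a * π x := by
      intro a ha
      have hK : (Subgroup.centralizer ({π a} : Set (H ⧸ φ.range))).comap π = ⊤ := by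
        apply hgen
        · intro b hb
          rw [Subgroup.mem_comap, Subgroup.mem_centralizer_singleton_iff, ← map_mul, ← map_mul,
            hA b hb a ha]
        · rw [Subgroup.mem_comap, Subgroup.mem_centralizer_singleton_iff]
          exact (hcw' a ha).symm
      intro x
      have hx : x ∈ (Subgroup.centralizer ({π a} : Set (H ⧸ φ.range))).comap π := by
        rw [hK]; trivial
      rw [Subgroup.mem_comap, Subgroup.mem_centralizer_singleton_iff] at hx
      exact hx
    have hall : ∀ x y : H, π x * π y = π y * π x := by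
      have hK : (Subgroup.center (H ⧸ φ.range)).comap π = ⊤ := by
        apply hgen
        · intro a ha
          rw [Subgroup.mem_comap, Subgroup.mem_center_iff]
          intro z
          obtain ⟨x, rfl⟩ := hsurj z
          exact hac a ha x
        · rw [Subgroup.mem_comap, Subgroup.mem_center_iff]
          intro z
          obtain ⟨x, rfl⟩ := hsurj z
          exact hwc x
      intro x y
      have hy : y ∈ (Subgroup.center (H ⧸ φ.range)).comap π := by
        rw [hK]; trivial
      rw [Subgroup.mem_comap, Subgroup.mem_center_iff] at hy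
      exact hy (π x)
    rw [commutator_def, Subgroup.commutator_le]
    intro g₁ _ g₂ _
    rw [← hπ, commutatorElement_def]
    simp only [map_mul, map_inv]
    rw [hall g₁ g₂]
    group
  have hle_comm : φ.range ≤ commutator H := by
    rintro x ⟨a, rfl⟩
    rw [hφ, commutator_def]
    have h1 : (a : H)⁻¹ * w⁻¹ * a * w = ⁅(a : H)⁻¹, w⁻¹⁆ := by
      rw [commutatorElement_def]; group
    rw [h1]
    exact Subgroup.commutator_mem_commutator (Subgroup.mem_top _) (Subgroup.mem_top _)
  have heq : commutator H = φ.range := le_antisymm hcomm_le hle_comm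
  rw [heq, ← Subgroup.index_ker]
  -- the kernel is `C_A(w)`
  have hker : φ.ker = (Subgroup.centralizer ({w} : Set H)).subgroupOf A := by
    ext a
    rw [MonoidHom.mem_ker, hφ, Subgroup.mem_subgroupOf, Subgroup.mem_centralizer_singleton_iff]
    constructor
    · intro h
      have : (a : H) * w = w * a * ((a : H)⁻¹ * w⁻¹ * a * w) := by group
      rw [h, mul_one] at this
      exact this
    · intro h
      have : (a : H)⁻¹ * w⁻¹ * a * w = (a : H)⁻¹ * w⁻¹ * (a * w) := by group
      rw [this, h]; group
  rw [hker]
  change (Subgroup.centralizer ({w} : Set H)).relIndex A = p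
  have hsup : A ⊔ Subgroup.centralizer ({w} : Set H) = ⊤ :=
    hgen _ le_sup_left (le_sup_right (a := A)
      (Subgroup.mem_centralizer_singleton_iff.2 rfl))
  have h1 : A.relIndex (Subgroup.centralizer ({w} : Set H)) = p := by
    rw [← Subgroup.relIndex_sup_left (Subgroup.centralizer ({w} : Set H)) A, hsup,
      Subgroup.relIndex_top_right, hAi]
  have h2 := Subgroup.relIndex_mul_index
    (inf_le_right : A ⊓ Subgroup.centralizer ({w} : Set H) ≤ Subgroup.centralizer ({w} : Set H))
  have h3 := Subgroup.relIndex_mul_index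
    (inf_le_left : A ⊓ Subgroup.centralizer ({w} : Set H) ≤ A)
  rw [Subgroup.inf_relIndex_right, h1, hcw] at h2
  rw [Subgroup.inf_relIndex_left, hAi, ← h2] at h3
  exact Nat.eq_of_mul_eq_mul_right hp.pos h3

/-- In the setting `S0` the complement has index `|Q|`. -/
theorem index_compl_eq_card {G : Type u} [Group G] [Finite G] (Q P : Subgroup G) [Q.Normal]
    (hinf : Q ⊓ P = ⊥) (hsup : Q ⊔ P = ⊤) : P.index = Nat.card Q := by
  have h1 : Q.index = Nat.card P := by
    rw [← Subgroup.relIndex_top_right, ← hsup, Subgroup.relIndex_sup_left P Q,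
      ← Subgroup.inf_relIndex_right, hinf, Subgroup.relIndex_bot_left]
  have e1 := Subgroup.card_mul_index Q
  have e2 := Subgroup.card_mul_index P
  rw [h1] at e1
  have hpos : 0 < Nat.card P := Nat.card_pos
  have : Nat.card P * P.index = Nat.card P * Nat.card Q := by rw [e2, ← e1, mul_comm]
  exact Nat.eq_of_mul_eq_mul_left hpos this

/-- [I5] the commutator subgroup of every Sylow `p`-subgroup has order `p`. -/
theorem pkgI5_of (hI1 : PkgI1.{u}) (hE4 : PkgE4.{u}) (hE5a : PkgE5a.{u}) (hSylC : PkgSylC.{u}) :
    PkgI5.{u} := by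
  intro G _ _ m n Q P p s1 hc hmp P'
  have s0 := s1.s0
  have hp := s1.pp
  obtain ⟨hrel, hab, -, -⟩ := hI1 m n Q P p s1 hc
  obtain ⟨hnle, -⟩ := hE4 m n Q P s0
  obtain ⟨w, hwP, hwC⟩ : ∃ w ∈ P, w ∉ Subgroup.centralizer (Q : Set G) := by
    by_contra h
    apply hnle
    intro w hw
    by_contra hwc
    exact h ⟨w, hw, hwc⟩
  obtain ⟨hwrel, -, -⟩ := (hE5a m n Q P s0 w hwP).2 hwC
  have hQn : Q.Normal := s0.qn
  have hAn : ((Subgroup.centralizer (Q : Set G)).subgroupOf P).Normal :=
    Subgroup.Normal.subgroupOf inferInstance P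
  have hcard : Nat.card ↥(commutator ↥P) = p := by
    refine card_commutator_of_index_prime p hp ((Subgroup.centralizer (Q : Set G)).subgroupOf P)
      ?_ ?_ ⟨w, hwP⟩ ?_ ?_
    · intro a ha b hb
      rw [Subgroup.mem_subgroupOf] at ha hb
      exact Subtype.ext (hab a a.2 ha b b.2 hb)
    · have : ((Subgroup.centralizer (Q : Set G)).subgroupOf P).index =
          (Subgroup.centralizer (Q : Set G)).relIndex P := rfl
      rw [this, hrel, hmp]
    · rw [Subgroup.mem_subgroupOf]
      exact hwC
    · have h1 : Subgroup.centralizer ({(⟨w, hwP⟩ : ↥P)} : Set ↥P) =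
          (Subgroup.centralizer ({w} : Set G)).subgroupOf P := by
        ext x
        rw [Subgroup.mem_centralizer_singleton_iff, Subgroup.mem_subgroupOf,
          Subgroup.mem_centralizer_singleton_iff]
        constructor
        · intro h
          exact congrArg Subtype.val h
        · intro h
          exact Subtype.ext h
      have h2 : ((Subgroup.centralizer ({w} : Set G)).subgroupOf P).index =
          (Subgroup.centralizer ({w} : Set G)).relIndex P := rfl
      rw [h1, h2, hwrel, hmp]
  have hidx : P.index.Coprime p := by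
    rw [index_compl_eq_card Q P s0.inf s0.sup, ← hmp]
    exact s0.qm
  rw [hSylC p P hp s1.pg hidx P', hcard]

end Cfsg.Agent.Lib.Helper79.CS3
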