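-- Team project CS3 (S4284, helper81), part [END]: package [II5] (helper79).
import Mathlib
import Cfsg.Agent.Lib.Helper79.CS3.EndDefs
import Cfsg.Agent.Lib.Helper29.CS3.EndE5a

set_option autoImplicit false

namespace Cfsg.Agent.Lib.Helper79.CS3

open Cfsg.Agent.Lib.Helper81.CS3

universe u

/-- Coprime action: a commutator `t⁻¹ (g t g⁻¹)` (`t ∈ Q`) fixed by `g` is trivial when `g ^ p`
is central and `p` is prime to `|Q|`. -/
theorem fix_comm_eq_one {G : Type u} [Group G] [Finite G] (Q : Subgroup G) (p : ℕ)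
    (hQp : (Nat.card Q).Coprime p) (hQn : Q.Normal) (g : G) (hgp : g ^ p ∈ Subgroup.center G)
    (t : G) (ht : t ∈ Q) (c : G) (hc : c = t⁻¹ * (g * t * g⁻¹)) (hgc : g * c = c * g) :
    c = 1 := by
  have hcQ : c ∈ Q := by
    rw [hc]
    exact Q.mul_mem (Q.inv_mem ht) (hQn.conj_mem t ht g)
  have hk : ∀ k : ℕ, g ^ k * t * (g ^ k)⁻¹ = t * c ^ k := by
    intro k
    induction k with
    | zero => simp
    | succ k ih =>
      have h1 : g * c ^ k = c ^ k * g := (Commute.pow_right (show Commute g c from hgc) k)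
      calc g ^ (k + 1) * t * (g ^ (k + 1))⁻¹ = g * (g ^ k * t * (g ^ k)⁻¹) * g⁻¹ := by
            rw [pow_succ']; group
        _ = g * (t * c ^ k) * g⁻¹ := by rw [ih]
        _ = (g * t * g⁻¹) * (g * c ^ k) * g⁻¹ := by group
        _ = (g * t * g⁻¹) * (c ^ k * g) * g⁻¹ := by rw [h1]
        _ = t * (t⁻¹ * (g * t * g⁻¹)) * c ^ k := by group
        _ = t * c ^ (k + 1) := by rw [← hc, pow_succ', mul_assoc]
  have h2 : g ^ p * t * (g ^ p)⁻¹ = t := by
    rw [← Subgroup.mem_center_iff.1 hgp t]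
    group
  have h3 : c ^ p = 1 := by
    have := hk p
    rw [h2] at this
    exact (mul_eq_left.1 this.symm)
  have h4 : orderOf c ∣ p := orderOf_dvd_of_pow_eq_one h3
  have h5 : orderOf c ∣ Nat.card Q := Subgroup.orderOf_dvd_natCard Q hcQ
  have h6 : orderOf c ∣ 1 := by
    have := Nat.dvd_gcd h5 h4
    rwa [hQp.gcd_eq_one] at this
  exact orderOf_eq_one_iff.1 (Nat.dvd_one.1 h6)

/-- Conjugation by `h` preserves commuting with `g` when `g h g⁻¹ h⁻¹` is central. -/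
theorem conj_comm_of_central {G : Type u} [Group G] (g h x : G)
    (hz : g * h * g⁻¹ * h⁻¹ ∈ Subgroup.center G) (hgx : g * x = x * g) :
    g * (h * x * h⁻¹) = (h * x * h⁻¹) * g := by
  have hzc := Subgroup.mem_center_iff.1 hz
  have h1 : g * x * g⁻¹ = x := by rw [hgx]; group
  have h2 : g * (h * x * h⁻¹) * g⁻¹ =
      (g * h * g⁻¹ * h⁻¹) * (h * (g * x * g⁻¹) * h⁻¹) * (g * h * g⁻¹ * h⁻¹)⁻¹ := by group
  rw [h1] at h2
  have h3 : (g * h * g⁻¹ * h⁻¹) * (h * x * h⁻¹) * (g * h * g⁻¹ * h⁻¹)⁻¹ = h * x * h⁻¹ := by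
    rw [← hzc (h * x * h⁻¹)]; group
  rw [h3] at h2
  calc g * (h * x * h⁻¹) = (g * (h * x * h⁻¹) * g⁻¹) * g := by group
    _ = (h * x * h⁻¹) * g := by rw [h2]

/-- Conjugation by `h g` and by `g h` agree when `g h g⁻¹ h⁻¹` is central. -/
theorem conj_swap_of_central {G : Type u} [Group G] (g h x : G)
    (hz : g * h * g⁻¹ * h⁻¹ ∈ Subgroup.center G) :
    h * (g * x * g⁻¹) * h⁻¹ = g * (h * x * h⁻¹) * g⁻¹ := by
  have hzc := Subgroup.mem_center_iff.1 hz
  have h2 : g * (h * x * h⁻¹) * g⁻¹ =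
      (g * h * g⁻¹ * h⁻¹) * (h * (g * x * g⁻¹) * h⁻¹) * (g * h * g⁻¹ * h⁻¹)⁻¹ := by group
  rw [h2, ← hzc (h * (g * x * g⁻¹) * h⁻¹)]
  group

/-- [II5] CASE II is contradictory. -/
theorem pkgII5_of (hII4 : PkgII4.{u}) (hII12 : PkgII12.{u}) (hE7 : PkgE7.{u}) (hE4 : PkgE4.{u}) :
    PkgII5.{u} := by
  intro G _ _ m n Q P p s1 hc hmp
  have s0 := s1.s0
  have hp := s1.pp
  have hQn : Q.Normal := s0.qn
  have hqc := s0.qc
  obtain ⟨c1, c2, c3⟩ := hII4 m n Q P p s1 hc hmp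
  obtain ⟨hnle, -⟩ := hE4 m n Q P s0
  obtain ⟨g, hgP, hgC⟩ : ∃ g ∈ P, g ∉ Subgroup.centralizer (Q : Set G) := by
    by_contra h
    apply hnle
    intro w hw
    by_contra hwc
    exact h ⟨w, hw, hwc⟩
  have hgZ : g ∉ Subgroup.center G := fun h => hgC (Subgroup.center_le_centralizer _ h)
  obtain ⟨-, -, y, hyQ, hyZ, hy⟩ := hII12 m n Q P p s1 hc g hgP hgZ
  have hgy : g * y = y * g := (hy g hgP).1 rfl
  obtain ⟨q, hqQ, hq⟩ : ∃ q ∈ Q, q * g ≠ g * q := by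
    by_contra h
    apply hgC
    rw [Subgroup.mem_centralizer_iff]
    intro q hq
    by_contra hne
    exact h ⟨q, hq, hne⟩
  have hQp : (Nat.card Q).Coprime p := hmp ▸ s0.qm
  have hlem : ∀ t ∈ Q, ∀ c : G, c = t⁻¹ * (g * t * g⁻¹) → g * c = c * g → c = 1 :=
    fun t ht c hc hgc => fix_comm_eq_one Q p hQp hQn g (c2 g hgP) t ht c hc hgc
  obtain ⟨u, hu⟩ : ∃ u : G, u = q⁻¹ * (g * q * g⁻¹) := ⟨_, rfl⟩
  have huQ : u ∈ Q := by
    rw [hu]; exact Q.mul_mem (Q.inv_mem hqQ) (hQn.conj_mem q hqQ g)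
  have hu1 : u ≠ 1 := by
    intro h
    apply hq
    have h1 : g * q = q * u * g := by rw [hu]; group
    rw [h, mul_one] at h1
    exact h1.symm
  obtain ⟨v, hv⟩ : ∃ v : G, v = y * u := ⟨_, rfl⟩
  have hvQ : v ∈ Q := by rw [hv]; exact Q.mul_mem hyQ huQ
  have hgyi : g * y⁻¹ = y⁻¹ * g := by
    have : g * y⁻¹ = y⁻¹ * (y * g) * y⁻¹ := by group
    rw [this, ← hgy]; group
  have hvZ : v ∉ Subgroup.center G := by
    intro hvz
    have hgv : g * v = v * g := Subgroup.mem_center_iff.1 hvz g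
    have hgu : g * u = u * g := by
      have h1 : u = y⁻¹ * v := by rw [hv]; group
      rw [h1]
      calc g * (y⁻¹ * v) = (g * y⁻¹) * v := by group
        _ = y⁻¹ * (g * v) := by rw [hgyi]; group
        _ = y⁻¹ * v * g := by rw [hgv]; group
    exact hu1 (hlem q hqQ u hu hgu)
  obtain ⟨hvrel, -⟩ := hE7 m n Q P p s1 v hvQ hvZ
  obtain ⟨h, hhP, hhv, hhZ⟩ : ∃ h ∈ P, h * v = v * h ∧ h ∉ Subgroup.center G := by
    by_contra hno
    have hle : Subgroup.centralizer ({v} : Set G) ⊓ P ≤ P ⊓ Subgroup.center G := by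
      intro x hx
      refine ⟨hx.2, ?_⟩
      by_contra hxz
      exact hno ⟨x, hx.2, Subgroup.mem_centralizer_singleton_iff.1 hx.1, hxz⟩
    have hcard := Subgroup.card_le_of_le hle
    have h1 := Cfsg.Agent.Lib.Helper29.CS3.relIndex_mul_card_inf
      (Subgroup.centralizer ({v} : Set G)) P
    rw [hvrel, hmp, c3] at h1
    have h2 : Nat.card ↥(Subgroup.centralizer ({v} : Set G) ⊓ P) =
        p * Nat.card ↥(P ⊓ Subgroup.center G) := by
      have : p * Nat.card ↥(Subgroup.centralizer ({v} : Set G) ⊓ P) =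
          p * (p * Nat.card ↥(P ⊓ Subgroup.center G)) := by rw [h1]; ring
      exact Nat.eq_of_mul_eq_mul_left hp.pos this
    have hpos : 0 < Nat.card ↥(P ⊓ Subgroup.center G) := Nat.card_pos
    have h3 := hp.two_le
    nlinarith
  have hz := c1 g hgP h hhP
  -- `h` fixes `y` and `u`
  have hy'g : g * (h * y * h⁻¹) = (h * y * h⁻¹) * g := conj_comm_of_central g h y hz hgy
  have hq'Q : h * q * h⁻¹ ∈ Q := hQn.conj_mem q hqQ h
  have hu' : h * u * h⁻¹ = (h * q * h⁻¹)⁻¹ * (g * (h * q * h⁻¹) * g⁻¹) := by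
    rw [← conj_swap_of_central g h q hz, hu]
    group
  have hvv : (h * y * h⁻¹) * (h * u * h⁻¹) = y * u := by
    have : (h * y * h⁻¹) * (h * u * h⁻¹) = h * (y * u) * h⁻¹ := by group
    rw [this, ← hv, hhv]; group
  obtain ⟨c, hcdef⟩ : ∃ c : G, c = y⁻¹ * (h * y * h⁻¹) := ⟨_, rfl⟩
  have hc1 : c = 1 := by
    apply hlem (q * (h * q * h⁻¹)⁻¹) (Q.mul_mem hqQ (Q.inv_mem hq'Q)) c
    · -- c = u * (h u h⁻¹)⁻¹ = t⁻¹ * (g t g⁻¹)
      have e1 : c = u * (h * u * h⁻¹)⁻¹ := by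
        have : y⁻¹ * (h * y * h⁻¹) = y⁻¹ * ((h * y * h⁻¹) * (h * u * h⁻¹)) * (h * u * h⁻¹)⁻¹ := by
          group
        rw [hcdef, this, hvv]; group
      rw [e1, hu', hu]
      -- commute `h q h⁻¹` past an element of `Q`
      have hm : q⁻¹ * (g * q * g⁻¹) * (g * (h * q * h⁻¹)⁻¹ * g⁻¹) ∈ Q :=
        Q.mul_mem (Q.mul_mem (Q.inv_mem hqQ) (hQn.conj_mem q hqQ g))
          (hQn.conj_mem _ (Q.inv_mem hq'Q) g)
      have hcm := hqc _ hm _ hq'Q
      calc q⁻¹ * (g * q * g⁻¹) * ((h * q * h⁻¹)⁻¹ * (g * (h * q * h⁻¹) * g⁻¹))⁻¹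
          = q⁻¹ * (g * q * g⁻¹) * (g * (h * q * h⁻¹)⁻¹ * g⁻¹) * (h * q * h⁻¹) := by group
        _ = (h * q * h⁻¹) * (q⁻¹ * (g * q * g⁻¹) * (g * (h * q * h⁻¹)⁻¹ * g⁻¹)) := hcm
        _ = (q * (h * q * h⁻¹)⁻¹)⁻¹ * (g * (q * (h * q * h⁻¹)⁻¹) * g⁻¹) := by group
    · rw [hcdef]
      calc g * (y⁻¹ * (h * y * h⁻¹)) = (g * y⁻¹) * (h * y * h⁻¹) := by group
        _ = y⁻¹ * (g * (h * y * h⁻¹)) := by rw [hgyi]; group
        _ = y⁻¹ * (h * y * h⁻¹) * g := by rw [hy'g]; group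
  have hhy : h * y = y * h := by
    have : h * y = y * (y⁻¹ * (h * y * h⁻¹)) * h := by group
    rw [this, ← hcdef, hc1, mul_one]
  have hhu : h * u = u * h := by
    have h1 : h * y * h⁻¹ = y := by rw [hhy]; group
    rw [h1] at hvv
    have h2 : h * u * h⁻¹ = u := mul_left_cancel hvv
    have : h * u = (h * u * h⁻¹) * h := by group
    rw [this, h2]
  have hhg : h * g = g * h := (hy h hhP).2 hhy
  -- `g` fixes `u`
  have hgu : g * u = u * g := by
    by_cases huZ : u ∈ Subgroup.center G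
    · exact Subgroup.mem_center_iff.1 huZ g
    · obtain ⟨hurel, huab⟩ := hE7 m n Q P p s1 u huQ huZ
      obtain ⟨hhrel, -, -⟩ := hII12 m n Q P p s1 hc h hhP hhZ
      have hle : Subgroup.centralizer ({u} : Set G) ⊓ P ≤ Subgroup.centralizer ({h} : Set G) ⊓ P := by
        intro x hx
        exact ⟨Subgroup.mem_centralizer_singleton_iff.2
          (huab x hx.2 (Subgroup.mem_centralizer_singleton_iff.1 hx.1) h hhP hhu), hx.2⟩
      have e1 := Cfsg.Agent.Lib.Helper29.CS3.relIndex_mul_card_inf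
        (Subgroup.centralizer ({u} : Set G)) P
      have e2 := Cfsg.Agent.Lib.Helper29.CS3.relIndex_mul_card_inf
        (Subgroup.centralizer ({h} : Set G)) P
      rw [hurel] at e1
      rw [hhrel, ← e1] at e2
      have hmpos : 0 < m := by rw [hmp]; exact hp.pos
      have e3 : Nat.card ↥(Subgroup.centralizer ({h} : Set G) ⊓ P) =
          Nat.card ↥(Subgroup.centralizer ({u} : Set G) ⊓ P) := Nat.eq_of_mul_eq_mul_left hmpos e2
      have heq := Subgroup.eq_of_le_of_card_ge hle (le_of_eq e3)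
      have hg : g ∈ Subgroup.centralizer ({h} : Set G) ⊓ P :=
        ⟨Subgroup.mem_centralizer_singleton_iff.2 hhg.symm, hgP⟩
      rw [← heq] at hg
      exact Subgroup.mem_centralizer_singleton_iff.1 hg.1
  exact hu1 (hlem q hqQ u hu hgu)

end Cfsg.Agent.Lib.Helper79.CS3
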